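import Cfsg.Agent.Lib.Helper57.OE.Defs
import Cfsg.Agent.Lib.Helper2.Sp.Base

set_option autoImplicit false
set_option linter.unusedSectionVars false

namespace Cfsg.Agent.Lib.Helper72.OE

open Cfsg Cfsg.Geo Matrix Cfsg.Agent.Lib.Helper13.Asch Cfsg.Agent.Lib.Helper90.Sp
  Cfsg.Agent.Lib.Helper57.OE Cfsg.Agent.Lib.Helper2.Sp
open scoped Kronecker MatrixGroups

variable {ι : Type} [Fintype ι] [DecidableEq ι] {F : Type*} [Field F] {Q : (ι → F) → F}

theorem fixesForm_polar' {S : Set (Matrix ι ι F)} (h : FixesQuadForm S Q) :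
    FixesForm S (QuadraticMap.polar Q) := by
  intro s hs u v
  unfold QuadraticMap.polar
  rw [← Matrix.mulVec_add, h s hs, h s hs, h s hs]

theorem Q_add' (Q : (ι → F) → F) (u v : ι → F) :
    Q (u + v) = Q u + Q v + QuadraticMap.polar Q u v := by
  unfold QuadraticMap.polar
  ring

theorem Q_zero' (hQ : IsNondegenerateQuadraticForm Q) : Q 0 = 0 := by
  have := hQ.smul 0 0
  simpa using this

theorem two_mul_Q' (hQ : IsNondegenerateQuadraticForm Q) (v : ι → F) :
    2 * Q v = QuadraticMap.polar Q v v := by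
  have h1 := hQ.smul 2 v
  have h2 := Q_add' Q v v
  rw [← two_smul F v, h1] at h2
  linear_combination h2

/-- E1 -/
theorem o_reducible [Fintype F] (hQ : IsNondegenerateQuadraticForm Q) {H : Subgroup (GL ι F)}
    (hH : FixesQuadForm (matrixSet H) Q) (hred : ¬ ActsIrreducibly (matrixSet H)) :
    RSing Q H ∨ RNd Q H ∨ (¬ Odd (Fintype.card F) ∧ RVec Q H) := by
  unfold ActsIrreducibly at hred
  push Not at hred
  obtain ⟨W, hW, hW0, hW1⟩ := hred
  have hb := hQ.polar_bilinear
  have hHf : FixesForm (matrixSet H) (QuadraticMap.polar Q) := fixesForm_polar' hH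
  set P := perp hb W with hP
  have hPinv : ∀ s ∈ matrixSet H, P.map (Matrix.toLin' s) ≤ P := perp_inv hb hHf hW
  by_cases hR : W ⊓ P = ⊥
  · right; left
    refine ⟨W, hW0, hW1, ?_, Helper58.Asch.le_subspaceStabilizer hW⟩
    intro w hw hw0
    have h1 : w ∉ P := by
      intro hwP
      apply hw0
      have : w ∈ W ⊓ P := ⟨hw, hwP⟩
      rw [hR] at this
      simpa using this
    rw [hP, mem_perp] at h1
    push Not at h1
    obtain ⟨x, hx, hxw⟩ := h1
    refine ⟨⟨x, hx, hxw⟩, ⟨x, hx, ?_⟩⟩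
    rw [QuadraticMap.polar_comm]
    exact hxw
  · have hf0 : ∀ u ∈ W ⊓ P, ∀ v ∈ W ⊓ P, QuadraticMap.polar Q u v = 0 := fun u hu v hv =>
      (mem_perp hb).1 hv.2 u hu.1
    have hRinv : ∀ g ∈ H, ∀ v ∈ W ⊓ P, (g : Matrix ι ι F) *ᵥ v ∈ W ⊓ P := fun g hg v hv =>
      ⟨mulVec_mem_of_inv hW hg hv.1, mulVec_mem_of_inv hPinv hg hv.2⟩
    let R0 : Submodule F (ι → F) :=
      { carrier := {v | v ∈ W ⊓ P ∧ Q v = 0}
        add_mem' := by
          rintro u v ⟨hu, hu0⟩ ⟨hv, hv0⟩
          exact ⟨(W ⊓ P).add_mem hu hv, by rw [Q_add' Q, hu0, hv0, hf0 u hu v hv]; simp⟩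
        zero_mem' := ⟨(W ⊓ P).zero_mem, Q_zero' hQ⟩
        smul_mem' := by
          rintro c v ⟨hv, hv0⟩
          exact ⟨(W ⊓ P).smul_mem c hv, by rw [hQ.smul, hv0, mul_zero]⟩ }
    have hR0mem : ∀ v, v ∈ R0 ↔ v ∈ W ⊓ P ∧ Q v = 0 := fun v => Iff.rfl
    by_cases hR0 : R0 = ⊥
    · right; right
      have hQne : ∀ v ∈ W ⊓ P, v ≠ 0 → Q v ≠ 0 := by
        intro v hv hv0 hQv
        apply hv0
        have : v ∈ R0 := ⟨hv, hQv⟩
        rw [hR0] at this
        simpa using this
      obtain ⟨v, hv, hv0⟩ := (Submodule.ne_bot_iff _).1 hR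
      have h2 : (2 : F) = 0 := by
        by_contra h2
        have h3 := two_mul_Q' hQ v
        rw [hf0 v hv v hv] at h3
        rcases mul_eq_zero.1 h3 with h | h
        · exact h2 h
        · exact hQne v hv hv0 h
      have hchar : ringChar F = 2 := by
        have : CharP F 2 := CharTwo.of_one_ne_zero_of_two_eq_zero one_ne_zero h2
        exact ringChar.eq F 2
      refine ⟨?_, v, hQne v hv hv0, ?_⟩
      · rw [Nat.not_odd_iff_even, Nat.even_iff]
        exact FiniteField.even_card_iff_char_two.1 hchar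
      · have hspan : Submodule.span F {v} = W ⊓ P := by
          apply le_antisymm
          · rw [Submodule.span_singleton_le_iff_mem]; exact hv
          · intro u hu
            obtain ⟨c, hc⟩ := FiniteField.isSquare_of_char_two hchar (Q u / Q v)
            have h4 : u + c • v ∈ R0 := by
              refine ⟨(W ⊓ P).add_mem hu ((W ⊓ P).smul_mem c hv), ?_⟩
              rw [Q_add' Q, hQ.smul, hf0 u hu _ ((W ⊓ P).smul_mem c hv), pow_two, ← hc,
                div_mul_cancel₀ _ (hQne v hv hv0), add_zero, ← two_mul, h2, zero_mul]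
            rw [hR0] at h4
            have h5 : u = (-c) • v := by
              have : u + c • v = 0 := by simpa using h4
              rw [neg_smul]
              exact eq_neg_of_add_eq_zero_left this
            rw [h5]
            exact Submodule.smul_mem _ _ (Submodule.mem_span_singleton_self v)
        rw [hspan]
        exact Helper58.Asch.le_subspaceStabilizer (inv_of_mulVec_mem hRinv)
    · left
      refine ⟨R0, hR0, fun w hw => hw.2, ?_⟩
      apply Helper58.Asch.le_subspaceStabilizer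
      apply inv_of_mulVec_mem
      intro g hg v hv
      exact ⟨hRinv g hg v hv.1, by rw [hH _ ⟨g, hg, rfl⟩, hv.2]⟩

end Cfsg.Agent.Lib.Helper72.OE
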